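import Cfsg.Agent.H127.An.Main
import Cfsg.Agent.H127.An.KeyProof

/-!
# The row of the alternating groups (S4792)
-/

set_option autoImplicit false
set_option linter.unusedVariables false

namespace Cfsg.Agent.H127.An

/-- `Good (Fin n)` for `n ≠ 3`: every nonzero representation of `S_n` has a nonzero vector fixed by the centralizer in
`A_n` of some element of `A_n`. -/
theorem good_fin (n : ℕ) (hn : n ≠ 3) : Good (Fin n) :=
  good_all keyLemma n (Fin n) (Fintype.card_fin n) hn

/-- **the row of the alternating groups** -/
theorem row_alt {S : Type*} [Group S] [Finite S] (hs : IsSimpleGroup S) (h : Cfsg.IsAlternating S) :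
    Cfsg.Agent.H430.Conj.Row S :=
  row_alt_of_key keyLemma h

end Cfsg.Agent.H127.An
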